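import Cfsg.Agent.H686.EX.Rows3

/-!
# S5745: the number of elements of order `3` of `L₄(3)` (helper190)

* `card_reg` : at least `449280` regular unipotent elements of `SL₄(3)`;
* `ord3_psl43` : **at most `82160` elements of order `3` in `L₄(3)`**.
-/

set_option autoImplicit false
set_option linter.unusedSectionVars false

namespace Cfsg.Agent.H190.EPX

open Matrix Cfsg
open Cfsg.Agent.Nodes.RGDChev (HasRGD)

section lin

variable {F : Type*} [Field F]

/-- the nilpotent Jordan block -/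
def NJ : Matrix (Fin 4) (Fin 4) F := !![0, 1, 0, 0; 0, 0, 1, 0; 0, 0, 0, 1; 0, 0, 0, 0]

/-- the basis vectors -/
def ev (i : Fin 4) : Fin 4 → F := Pi.single i 1

theorem NJ_ev3 : (NJ : Matrix (Fin 4) (Fin 4) F) *ᵥ ev 3 = ev 2 := by
  ext i
  fin_cases i <;> simp [NJ, ev, Matrix.mulVec, dotProduct, Fin.sum_univ_succ]

theorem NJ_ev2 : (NJ : Matrix (Fin 4) (Fin 4) F) *ᵥ ev 2 = ev 1 := by
  ext i
  fin_cases i <;> simp [NJ, ev, Matrix.mulVec, dotProduct, Fin.sum_univ_succ]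

theorem NJ_ev1 : (NJ : Matrix (Fin 4) (Fin 4) F) *ᵥ ev 1 = ev 0 := by
  ext i
  fin_cases i <;> simp [NJ, ev, Matrix.mulVec, dotProduct, Fin.sum_univ_succ]

theorem NJ3 (v : Fin 4 → F) : (NJ : Matrix (Fin 4) (Fin 4) F) *ᵥ (NJ *ᵥ (NJ *ᵥ v)) = v 3 • ev 0 := by
  ext i
  fin_cases i <;> simp [NJ, ev, Matrix.mulVec, dotProduct, Fin.sum_univ_succ]

theorem NJ_pow4 : (NJ : Matrix (Fin 4) (Fin 4) F) ^ 4 = 0 := by
  ext i j
  fin_cases i <;> fin_cases j <;> simp [NJ, pow_succ, Matrix.mul_apply, Fin.sum_univ_succ]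

theorem NJ_pow3 : ((NJ : Matrix (Fin 4) (Fin 4) F) ^ 3) 0 3 = 1 := by
  simp [NJ, pow_succ, Matrix.mul_apply, Fin.sum_univ_succ]

theorem det_J : (1 + NJ : Matrix (Fin 4) (Fin 4) F).det = 1 := by
  simp [NJ, Matrix.det_succ_row_zero, Fin.sum_univ_succ, Matrix.one_apply]

theorem ext_ev {c c' : Matrix (Fin 4) (Fin 4) F} (hc : c * NJ = NJ * c) (hc' : c' * NJ = NJ * c')
    (h : c *ᵥ ev 3 = c' *ᵥ ev 3) : c = c' := by
  have h2 : c *ᵥ ev 2 = c' *ᵥ ev 2 := by
    rw [← NJ_ev3, Matrix.mulVec_mulVec, Matrix.mulVec_mulVec, hc, hc', ← Matrix.mulVec_mulVec, ← Matrix.mulVec_mulVec, h]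
  have h1 : c *ᵥ ev 1 = c' *ᵥ ev 1 := by
    rw [← NJ_ev2, Matrix.mulVec_mulVec, Matrix.mulVec_mulVec, hc, hc', ← Matrix.mulVec_mulVec, ← Matrix.mulVec_mulVec, h2]
  have h0 : c *ᵥ ev 0 = c' *ᵥ ev 0 := by
    rw [← NJ_ev1, Matrix.mulVec_mulVec, Matrix.mulVec_mulVec, hc, hc', ← Matrix.mulVec_mulVec, ← Matrix.mulVec_mulVec, h1]
  refine Matrix.ext_of_mulVec_single fun i => ?_
  fin_cases i
  · exact h0
  · exact h1
  · exact h2
  · exact h

theorem ne_zero_of_comm (c : GL (Fin 4) F) (hc : (c : Matrix (Fin 4) (Fin 4) F) * NJ = NJ * (c : Matrix (Fin 4) (Fin 4) F)) :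
    ((c : Matrix (Fin 4) (Fin 4) F) *ᵥ ev 3) 3 ≠ 0 := by
  intro h
  have h1 : (c : Matrix (Fin 4) (Fin 4) F) *ᵥ ev 0 = 0 := by
    have e : (c : Matrix (Fin 4) (Fin 4) F) *ᵥ ev 0 = NJ *ᵥ (NJ *ᵥ (NJ *ᵥ ((c : Matrix (Fin 4) (Fin 4) F) *ᵥ ev 3))) := by
      rw [← NJ_ev1, ← NJ_ev2, ← NJ_ev3]
      simp only [Matrix.mulVec_mulVec, ← mul_assoc]
      rw [hc, mul_assoc NJ _ NJ, hc, ← mul_assoc, mul_assoc (NJ * NJ) _ NJ, hc, ← mul_assoc]
    rw [e, NJ3, h, zero_smul]
  have h2 : (ev 0 : Fin 4 → F) = 0 := by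
    have h3 := congrArg (fun v => ((c⁻¹ : GL (Fin 4) F) : Matrix (Fin 4) (Fin 4) F) *ᵥ v) h1
    simp only [Matrix.mulVec_mulVec, Matrix.mulVec_zero] at h3
    rwa [← Units.val_mul, inv_mul_cancel, Units.val_one, Matrix.one_mulVec] at h3
  have h3 := congrFun h2 0
  simp [ev] at h3

/-- the regular unipotent elements -/
noncomputable def reg (g : GL (Fin 4) F) : SpecialLinearGroup (Fin 4) F :=
  ⟨(g : Matrix (Fin 4) (Fin 4) F) * (1 + NJ) * ((g⁻¹ : GL (Fin 4) F) : Matrix (Fin 4) (Fin 4) F), by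
    rw [Matrix.det_mul, Matrix.det_mul, det_J, mul_one, ← Matrix.det_mul, ← Units.val_mul, mul_inv_cancel, Units.val_one,
      Matrix.det_one]⟩

theorem reg_eq {g g' : GL (Fin 4) F} (h : reg g = reg g') :
    ((g'⁻¹ * g : GL (Fin 4) F) : Matrix (Fin 4) (Fin 4) F) * NJ = NJ * ((g'⁻¹ * g : GL (Fin 4) F) : Matrix (Fin 4) (Fin 4) F) := by
  have h1 : (g : Matrix (Fin 4) (Fin 4) F) * (1 + NJ) * ((g⁻¹ : GL (Fin 4) F) : Matrix (Fin 4) (Fin 4) F) =
      (g' : Matrix (Fin 4) (Fin 4) F) * (1 + NJ) * ((g'⁻¹ : GL (Fin 4) F) : Matrix (Fin 4) (Fin 4) F) :=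
    congrArg Subtype.val h
  have h2 : ((g⁻¹ : GL (Fin 4) F) : Matrix (Fin 4) (Fin 4) F) * g = 1 := by
    rw [← Units.val_mul, inv_mul_cancel, Units.val_one]
  have h3 : ((g'⁻¹ : GL (Fin 4) F) : Matrix (Fin 4) (Fin 4) F) * g' = 1 := by
    rw [← Units.val_mul, inv_mul_cancel, Units.val_one]
  have h4 : ((g'⁻¹ * g : GL (Fin 4) F) : Matrix (Fin 4) (Fin 4) F) * (1 + NJ) =
      (1 + NJ) * ((g'⁻¹ * g : GL (Fin 4) F) : Matrix (Fin 4) (Fin 4) F) := by
    rw [Units.val_mul]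
    generalize hA : (g : Matrix (Fin 4) (Fin 4) F) = a at *
    generalize hB : (g' : Matrix (Fin 4) (Fin 4) F) = b at *
    generalize hA' : ((g⁻¹ : GL (Fin 4) F) : Matrix (Fin 4) (Fin 4) F) = a' at *
    generalize hB' : ((g'⁻¹ : GL (Fin 4) F) : Matrix (Fin 4) (Fin 4) F) = b' at *
    calc b' * a * (1 + NJ) = b' * (a * (1 + NJ) * a') * a := by
          simp only [mul_assoc, h2, mul_one]
      _ = b' * (b * (1 + NJ) * b') * a := by rw [h1]
      _ = (b' * b) * ((1 + NJ) * (b' * a)) := by simp only [mul_assoc]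
      _ = _ := by rw [h3, one_mul]
  rw [mul_add, add_mul, mul_one, one_mul] at h4
  exact add_left_cancel h4

end lin

section count

variable {F : Type*} [Field F] [Fintype F]

theorem card_GL4 (hF : Fintype.card F = 3) : Nat.card (GL (Fin 4) F) = 24261120 := by
  rw [Matrix.card_GL_field, hF]
  decide

/-- a fibre of `reg` -/
theorem card_fibre (hF : Fintype.card F = 3) (g' : GL (Fin 4) F) :
    Nat.card {g : GL (Fin 4) F // reg g = reg g'} ≤ 54 := by
  classical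
  have hc : Nat.card (F × F × F × {x : F // x ≠ 0}) = 54 := by
    rw [Nat.card_prod, Nat.card_prod, Nat.card_prod, Nat.card_eq_fintype_card, Nat.card_eq_fintype_card,
      Fintype.card_subtype_compl, hF, Fintype.card_subtype_eq]
  rw [← hc]
  let v : {g : GL (Fin 4) F // reg g = reg g'} → (Fin 4 → F) := fun g =>
    ((g'⁻¹ * g.1 : GL (Fin 4) F) : Matrix (Fin 4) (Fin 4) F) *ᵥ ev 3
  refine Nat.card_le_card_of_injective (fun g => (v g 0, v g 1, v g 2, ⟨v g 3, ne_zero_of_comm _ (reg_eq g.2)⟩)) ?_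
  intro a b hab
  simp only [Prod.mk.injEq, Subtype.mk.injEq] at hab
  obtain ⟨e0, e1, e2, e3⟩ := hab
  have h1 : v a = v b := by
    funext i
    fin_cases i
    · exact e0
    · exact e1
    · exact e2
    · exact e3
  have h2 := ext_ev (reg_eq a.2) (reg_eq b.2) h1
  have h3 : (g'⁻¹ * a.1 : GL (Fin 4) F) = g'⁻¹ * b.1 := Units.ext h2
  exact Subtype.ext (mul_left_cancel h3)

/-- **the number of regular unipotent elements** -/
theorem card_reg (hF : Fintype.card F = 3) : 449280 ≤ (Set.range (reg : GL (Fin 4) F → _)).ncard := by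
  classical
  have h1 : (Finset.univ : Finset (GL (Fin 4) F)).card ≤
      54 * ((Finset.univ : Finset (GL (Fin 4) F)).image reg).card := by
    refine Finset.card_le_mul_card_image _ 54 fun a ha => ?_
    obtain ⟨g', -, rfl⟩ := Finset.mem_image.1 ha
    have h2 := card_fibre hF g'
    rw [Nat.card_eq_fintype_card, Fintype.card_subtype] at h2
    exact h2
  rw [Finset.card_univ, ← Nat.card_eq_fintype_card, card_GL4 hF] at h1
  have h2 : (Set.range (reg : GL (Fin 4) F → _)) = ((Finset.univ : Finset (GL (Fin 4) F)).image reg : Set _) := by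
    simp
  rw [h2, Set.ncard_coe_finset]
  omega

end count

/-! ### Orders in `PSL` -/

section psl

variable {F : Type*} [Field F]

theorem scalar_of_center {z : SpecialLinearGroup (Fin 4) F} (hz : z ∈ Subgroup.center (SpecialLinearGroup (Fin 4) F)) :
    ∃ r : F, r ^ 4 = 1 ∧ (z : Matrix (Fin 4) (Fin 4) F) = Matrix.scalar (Fin 4) r := by
  obtain ⟨r, h1, h2⟩ := Matrix.SpecialLinearGroup.mem_center_iff.1 hz
  exact ⟨r, by simpa using h1, h2.symm⟩

theorem three_eq [CharP F 3] : (3 : Matrix (Fin 4) (Fin 4) F) = 0 := by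
  have := CharP.cast_eq_zero F 3
  ext i j
  have h4 : ((3 : Matrix (Fin 4) (Fin 4) F)) i j = if i = j then (3 : F) else 0 := by
    have : (3 : Matrix (Fin 4) (Fin 4) F) = ((3 : ℕ) : Matrix (Fin 4) (Fin 4) F) := by norm_cast
    rw [this, Matrix.natCast_apply]
    push_cast
    rfl
  rw [h4]
  have h5 : (3 : F) = 0 := by exact_mod_cast this
  simp [h5]

theorem cube [CharP F 3] {a a' : Matrix (Fin 4) (Fin 4) F} (h : a' * a = 1) (X : Matrix (Fin 4) (Fin 4) F) :
    (a * (1 + X) * a') ^ 3 = a * (1 + X ^ 3) * a' := by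
  have h4 : (1 + X) * ((1 + X) * (1 + X)) = 1 + X ^ 3 := by
    have : (1 + X) * ((1 + X) * (1 + X)) = 1 + X ^ 3 + 3 * (X + X ^ 2) := by
      noncomm_ring
    rw [this, three_eq, zero_mul, add_zero]
  rw [← h4]
  generalize (1 + X : Matrix (Fin 4) (Fin 4) F) = u
  calc (a * u * a') ^ 3 = a * u * (a' * a) * u * (a' * a) * u * a' := by noncomm_ring
    _ = _ := by rw [h]; noncomm_ring

theorem inv_mul_coe (g : GL (Fin 4) F) : ((g⁻¹ : GL (Fin 4) F) : Matrix (Fin 4) (Fin 4) F) * g = 1 := by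
  rw [← Units.val_mul, inv_mul_cancel, Units.val_one]

theorem mul_inv_coe (g : GL (Fin 4) F) : (g : Matrix (Fin 4) (Fin 4) F) * ((g⁻¹ : GL (Fin 4) F) : Matrix (Fin 4) (Fin 4) F) = 1 := by
  rw [← Units.val_mul, mul_inv_cancel, Units.val_one]

theorem reg_cube [CharP F 3] (g : GL (Fin 4) F) : ((reg g ^ 3 : SpecialLinearGroup (Fin 4) F) : Matrix (Fin 4) (Fin 4) F) =
    (g : Matrix (Fin 4) (Fin 4) F) * (1 + NJ ^ 3) * ((g⁻¹ : GL (Fin 4) F) : Matrix (Fin 4) (Fin 4) F) := by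
  rw [Matrix.SpecialLinearGroup.coe_pow]
  exact cube (inv_mul_coe g) NJ

theorem reg_nine [CharP F 3] (g : GL (Fin 4) F) : reg g ^ 9 = 1 := by
  apply Subtype.ext
  have h1 : (reg g) ^ 9 = (reg g ^ 3) ^ 3 := by rw [← pow_mul]
  rw [h1, Matrix.SpecialLinearGroup.coe_pow, reg_cube, cube (inv_mul_coe g)]
  have h2 : ((NJ : Matrix (Fin 4) (Fin 4) F) ^ 3) ^ 3 = 0 := by
    rw [← pow_mul, show 3 * 3 = 4 + 5 from rfl, pow_add, NJ_pow4, zero_mul]
  rw [h2, add_zero, mul_one, mul_inv_coe]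
  rfl

theorem reg_cube_notMem [CharP F 3] (g : GL (Fin 4) F) : reg g ^ 3 ∉ Subgroup.center (SpecialLinearGroup (Fin 4) F) := by
  intro h
  obtain ⟨r, -, hr⟩ := scalar_of_center h
  rw [reg_cube] at hr
  have h1 : (1 + NJ ^ 3 : Matrix (Fin 4) (Fin 4) F) = Matrix.scalar (Fin 4) r := by
    have e1 := inv_mul_coe g
    have e2 := Matrix.scalar_comm r (fun r' => Commute.all r r') ((g⁻¹ : GL (Fin 4) F) : Matrix (Fin 4) (Fin 4) F)
    generalize (g : Matrix (Fin 4) (Fin 4) F) = a at *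
    generalize ((g⁻¹ : GL (Fin 4) F) : Matrix (Fin 4) (Fin 4) F) = a' at *
    calc (1 + NJ ^ 3 : Matrix (Fin 4) (Fin 4) F) = (a' * a) * (1 + NJ ^ 3) * (a' * a) := by rw [e1, one_mul, mul_one]
      _ = a' * (a * (1 + NJ ^ 3) * a') * a := by simp only [mul_assoc]
      _ = a' * Matrix.scalar (Fin 4) r * a := by rw [hr]
      _ = Matrix.scalar (Fin 4) r := by rw [← e2, mul_assoc, e1, mul_one]
  have h2 := congrFun (congrFun h1 0) 3
  rw [Matrix.add_apply, NJ_pow3] at h2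
  simp at h2

/-- the image in `PSL` -/
abbrev mkp (u : SpecialLinearGroup (Fin 4) F) : ProjectiveSpecialLinearGroup (Fin 4) F := QuotientGroup.mk u

theorem order_mk [CharP F 3] (g : GL (Fin 4) F) : orderOf (mkp (reg g)) = 3 ^ 2 := by
  have : Fact (Nat.Prime 3) := ⟨Nat.prime_three⟩
  refine orderOf_eq_prime_pow (n := 1) ?_ ?_
  · intro h
    rw [pow_one, mkp, ← QuotientGroup.mk_pow, QuotientGroup.eq_one_iff] at h
    exact reg_cube_notMem g h
  · have h1 : (3 : ℕ) ^ (1 + 1) = 9 := by norm_num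
    rw [h1, mkp, ← QuotientGroup.mk_pow, reg_nine]
    rfl

theorem mk_inj [CharP F 3] {g g' : GL (Fin 4) F} (h : mkp (reg g) = mkp (reg g')) : reg g = reg g' := by
  have h1 : (reg g)⁻¹ * reg g' ∈ Subgroup.center (SpecialLinearGroup (Fin 4) F) := QuotientGroup.eq.1 h
  obtain ⟨z, hz⟩ : ∃ z, z = (reg g)⁻¹ * reg g' := ⟨_, rfl⟩
  rw [← hz] at h1
  have h2 : reg g' = reg g * z := by rw [hz]; group
  have h3 : z ^ 9 = 1 := by
    have hc : Commute (reg g) z := ((Subgroup.mem_center_iff.1 h1) (reg g))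
    have h4 := congrArg (fun x => x ^ 9) h2
    simp only [hc.mul_pow, reg_nine, one_mul] at h4
    exact h4.symm
  obtain ⟨r, hr, hzr⟩ := scalar_of_center h1
  have h5 : r ^ 9 = 1 := by
    have h6 := congrArg (fun x : SpecialLinearGroup (Fin 4) F => (x : Matrix (Fin 4) (Fin 4) F)) h3
    simp only [Matrix.SpecialLinearGroup.coe_pow, hzr, ← map_pow] at h6
    have h7 := congrFun (congrFun h6 0) 0
    simpa using h7
  have h6 : r = 1 := by
    calc r = r * (r ^ 4) ^ 2 := by rw [hr, one_pow, mul_one]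
      _ = r ^ 9 := by ring
      _ = 1 := h5
  have h7 : z = 1 := by
    apply Subtype.ext
    show (z : Matrix (Fin 4) (Fin 4) F) = 1
    rw [hzr, h6, map_one]
  rw [h2, h7, mul_one]

/-- **the number of elements of order `3` of `L₄(3)`** -/
theorem ord3_psl43 {F : Type} [Field F] [Fintype F] (hF : Fintype.card F = 3)
    (hT : HasRGD 3 (ProjectiveSpecialLinearGroup (Fin 4) F)) :
    {x : ProjectiveSpecialLinearGroup (Fin 4) F | orderOf x = 3}.ncard ≤ 82160 := by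
  classical
  have : Fact (Nat.Prime 3) := ⟨Nat.prime_three⟩
  have hch : CharP F 3 := H686.EX.charP_three (n := 1) (by rw [hF, pow_one])
  have h1 := Cfsg.Agent.H631.Kaw.card_pSet hT
  have h2 : (Nat.card (ProjectiveSpecialLinearGroup (Fin 4) F)).factorization 3 = 6 := by
    rw [H686.EX.card_psl43 hF]
    have : (6065280 : ℕ) = 3 ^ 6 * 8320 := by norm_num
    rw [this, Nat.factorization_mul (by norm_num) (by norm_num), Nat.factorization_pow]
    simp [Nat.Prime.factorization_self Nat.prime_three, Nat.factorization_eq_zero_of_not_dvd (show ¬ 3 ∣ 8320 by norm_num)]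
  rw [h2] at h1
  let A : Set (ProjectiveSpecialLinearGroup (Fin 4) F) := mkp '' Set.range (reg : GL (Fin 4) F → _)
  have hA : 449280 ≤ A.ncard := by
    have h3 : A.ncard = (Set.range (reg : GL (Fin 4) F → SpecialLinearGroup (Fin 4) F)).ncard := by
      refine Set.InjOn.ncard_image ?_
      rintro _ ⟨g, rfl⟩ _ ⟨g', rfl⟩ h
      exact mk_inj h
    rw [h3]
    exact card_reg hF
  have hA9 : ∀ x ∈ A, orderOf x = 9 := by
    rintro _ ⟨_, ⟨g, rfl⟩, rfl⟩
    exact order_mk g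
  let B : Set (ProjectiveSpecialLinearGroup (Fin 4) F) := {x | orderOf x = 3}
  have hd : Disjoint A B := by
    rw [Set.disjoint_left]
    intro x hx hx'
    have h3 := hA9 x hx
    have h4 : orderOf x = 3 := hx'
    omega
  have hd' : Disjoint (A ∪ B) {1} := by
    rw [Set.disjoint_singleton_right]
    rintro (h | h)
    · have := hA9 _ h
      rw [orderOf_one] at this
      omega
    · have h' : orderOf (1 : ProjectiveSpecialLinearGroup (Fin 4) F) = 3 := h
      rw [orderOf_one] at h'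
      omega
  have hsub : (A ∪ B) ∪ {1} ⊆ Cfsg.Agent.H730.OZ.pSet 3 (ProjectiveSpecialLinearGroup (Fin 4) F) := by
    rintro x ((hx | hx) | hx)
    · exact ⟨2, hA9 x hx⟩
    · exact ⟨1, hx⟩
    · rw [Set.mem_singleton_iff.1 hx]
      exact ⟨0, by rw [orderOf_one, pow_zero]⟩
  have h5 := Set.ncard_le_ncard hsub (Set.toFinite _)
  rw [h1, Set.ncard_union_eq hd' (Set.toFinite _) (Set.toFinite _), Set.ncard_union_eq hd (Set.toFinite _) (Set.toFinite _),
    Set.ncard_singleton] at h5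
  have h6 : (3 : ℕ) ^ (2 * 6) = 531441 := by norm_num
  rw [h6] at h5
  show B.ncard ≤ 82160
  omega

end psl

end Cfsg.Agent.H190.EPX
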