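import Cfsg.Agent.H190.EPX.RegL
import Cfsg.Agent.H933.OZ.U43

/-!
# S5745: the number of elements of order `3` of `U₄(3)` (helper190)

* `card_ord3` : a general count: `p^{2k}` elements of `p`-power order, enough of them of order `9`;
* `ord3_psl43'` : the statement of `RegL` as a `Nat.card`;
* `ord3_psu43` : **at most `47600` elements of order `3` in `U₄(3)`** (from the orbit of `u9` of helper933).
-/

set_option autoImplicit false

namespace Cfsg.Agent.H190.EPX

open Matrix Cfsg
open Cfsg.Agent.Nodes.RGDChev (HasRGD)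

/-- the count -/
theorem card_ord3 {G : Type*} [Group G] [Finite G] (hT : HasRGD 3 G) {k m a b : ℕ}
    (hc : Nat.card G = 3 ^ k * m) (hm : ¬ 3 ∣ m) (hm0 : m ≠ 0) (A : Set G) (hA : a ≤ A.ncard)
    (hA9 : ∀ x ∈ A, orderOf x = 9) (hab : 3 ^ (2 * k) ≤ a + b + 1) :
    Nat.card {x : G // orderOf x = 3} ≤ b := by
  classical
  have : Fact (Nat.Prime 3) := ⟨Nat.prime_three⟩
  have h1 := Cfsg.Agent.H631.Kaw.card_pSet hT
  have h2 : (Nat.card G).factorization 3 = k := by
    rw [hc, Nat.factorization_mul (by positivity) hm0, Nat.factorization_pow]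
    simp [Nat.Prime.factorization_self Nat.prime_three, Nat.factorization_eq_zero_of_not_dvd hm]
  rw [h2] at h1
  let B : Set G := {x | orderOf x = 3}
  have hd : Disjoint A B := by
    rw [Set.disjoint_left]
    intro x hx hx'
    have h3 := hA9 x hx
    have h4 : orderOf x = 3 := hx'
    omega
  have hd' : Disjoint (A ∪ B) {1} := by
    rw [Set.disjoint_singleton_right]
    rintro (h | h)
    · have := hA9 _ h
      rw [orderOf_one] at this
      omega
    · have h' : orderOf (1 : G) = 3 := h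
      rw [orderOf_one] at h'
      omega
  have hsub : (A ∪ B) ∪ {1} ⊆ Cfsg.Agent.H730.OZ.pSet 3 G := by
    rintro x ((hx | hx) | hx)
    · exact ⟨2, hA9 x hx⟩
    · exact ⟨1, hx⟩
    · rw [Set.mem_singleton_iff.1 hx]
      exact ⟨0, by rw [orderOf_one, pow_zero]⟩
  have h5 := Set.ncard_le_ncard hsub (Set.toFinite _)
  rw [h1, Set.ncard_union_eq hd' (Set.toFinite _) (Set.toFinite _), Set.ncard_union_eq hd (Set.toFinite _) (Set.toFinite _),
    Set.ncard_singleton] at h5
  have h7 : Nat.card {x : G // orderOf x = 3} = B.ncard := rfl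
  rw [h7]
  omega

/-- **the number of elements of order `3` of `L₄(3)`** -/
theorem ord3_psl43' {F : Type} [Field F] [Fintype F] (hF : Fintype.card F = 3)
    (hT : HasRGD 3 (ProjectiveSpecialLinearGroup (Fin 4) F)) :
    Nat.card {x : ProjectiveSpecialLinearGroup (Fin 4) F // orderOf x = 3} ≤ 82160 :=
  ord3_psl43 hF hT

open Cfsg.Agent.H933.OZ Cfsg.Agent.H933.OZ.U43 Orb Cfsg.Agent.SporadicStructure.FieldNine in
/-- **the number of elements of order `3` of `U₄(3)`** -/
theorem ord3_psu43 {F : Type} [Field F] [Fintype F] (hF : Fintype.card F = 9) (hT : HasRGD 3 (PSU 4 F 3)) :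
    Nat.card {x : PSU 4 F 3 // orderOf x = 3} ≤ 47600 := by
  classical
  have : Fact (Nat.Prime 3) := ⟨Nat.prime_three⟩
  obtain ⟨f⟩ := SporadicStructure.PsuMatch.psu_iso_of_card (F := F) (K := K9) (by rw [hF]; rfl) 4 3
  have hT' : HasRGD 3 (PSU 4 K9 3) := HasRGD.of_equiv f hT
  have h9 : ∀ x ∈ (orb u9 : Set (PSU 4 K9 3)), orderOf x = 9 := by
    intro x hx
    have hx' : x ∈ orb u9 := Finset.mem_coe.1 hx
    have h1 : orderOf x = 3 ^ (1 + 1) := by
      refine orderOf_eq_prime_pow (n := 1) ?_ ?_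
      · rw [pow_one]
        exact pow_ne_one u9_ne hx'
      · exact u9_dat.pow x hx'
    rw [h1]
    norm_num
  have hcard : 483840 ≤ (orb u9 : Set (PSU 4 K9 3)).ncard := by
    rw [Set.ncard_coe_finset]
    have h1 := u9_card
    rw [card_GU] at h1
    omega
  have h1 := card_ord3 (k := 6) (m := 4480) (a := 483840) (b := 47600) hT' (by rw [card_G]; norm_num) (by norm_num)
    (by norm_num) _ hcard h9 (by norm_num)
  refine le_trans (le_of_eq ?_) h1
  exact Nat.card_congr (f.toEquiv.subtypeEquiv fun x => by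
    rw [MulEquiv.toEquiv_eq_coe, MulEquiv.coe_toEquiv, MulEquiv.orderOf_eq])

end Cfsg.Agent.H190.EPX
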